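import Cfsg.Agent.MQ.PG0
import Cfsg.Agent.MQ.PB

set_option autoImplicit false

namespace Cfsg.Agent.MQ

open Subgroup Cfsg.Agent.H9 Cfsg.Agent.L0

universe u

theorem pg {G : Type u} [Group G] [Finite G] {p n : ℕ} [Fact p.Prime] {E P : Subgroup G} {τ : G → G}
    {v1 w v2 u : G} (h : MaxClass p n G) (hp : 5 ≤ p) (d : Dt p E P τ v1 w v2 u) (hn : 5 ≤ n) :
    P ≠ ⊤ ∧ Chn p P τ :=
  pg0 h hp d hn fun h6 a hZ => pb h hp d h6 a hZ

end Cfsg.Agent.MQ
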