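import Cfsg.Agent.MQ.D

/-! Weights of an endomorphism on the lower central factors of a group of maximal class. -/

set_option autoImplicit false

namespace Cfsg.Agent.MQ

open Subgroup Cfsg.Agent.H9 Cfsg.Agent.L0
open Cfsg.Agent.H23.LF (sup_zp_of_card mem_sup_zp mul_card_le')
open scoped commutatorElement

universe u
variable {G : Type u} [Group G] {p n : ℕ}

namespace TW

theorem gi (φ : G →* G) (i : ℕ) : ∀ x ∈ gam G i, φ x ∈ gam G i := by
  have : (gam G i).map φ ≤ gam G i := by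
    induction i with
    | zero => exact le_top
    | succ i ih =>
      show (⁅gam G i, (⊤ : Subgroup G)⁆).map φ ≤ ⁅gam G i, (⊤ : Subgroup G)⁆
      rw [map_commutator]
      exact commutator_mono ih le_top
  exact fun x hx => this ⟨x, hx, rfl⟩

theorem gle (j : ℕ) : gam G (j + 1) ≤ gam G j := gam_anti (Nat.le_succ j)

theorem st {j : ℕ} {z u s d : G} (hz : z ∈ gam G j) (h : z * u ∈ gam G (j + 1)) (hd : ⁅u, d⁆ ∈ gam G (j + 1 + 1)) :
    ⁅z, s⁆ * ⁅u, s * d⁆ ∈ gam G (j + 1 + 1) := by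
  have hu : u ∈ gam G j := by simpa using mul_mem (inv_mem hz) (gle j h)
  have a1 := gam_cm (gam_cm hu s) z
  have a2 := gam_cm h s
  have a3 : ⁅u, s⁆ * ⁅z, s⁆ ∈ gam G (j + 1 + 1) := by
    convert mul_mem a1 a2 using 1
    simp only [commutatorElement_def]; group
  have a4 := Normal.mem_comm inferInstance a3
  convert mul_mem a4 (Normal.conj_mem inferInstance _ hd s) using 1
  simp only [commutatorElement_def]; group

variable [Finite G] [hp : Fact p.Prime] (h : MaxClass p n G)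
include h

theorem all1 (φ : G →* G) {j : ℕ} (hj : 1 ≤ j) {x z : G} (hx : x ∈ gam G j) (hx1 : x ∉ gam G (j + 1))
    (tx : x⁻¹ * φ x ∈ gam G (j + 1)) (hz : z ∈ gam G j) : z⁻¹ * φ z ∈ gam G (j + 1) := by
  obtain ⟨m, hm⟩ := mc_lev h hj hx hx1 hz
  have e1 := QuotientGroup.eq.2 hm
  have e2 := QuotientGroup.eq.2 tx
  have e3 := gi φ _ _ hm
  rw [map_mul, map_inv, map_pow] at e3
  have e4 := QuotientGroup.eq.2 e3
  refine QuotientGroup.eq.1 ?_
  rw [← e1, ← e4, QuotientGroup.mk_pow, QuotientGroup.mk_pow, e2]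

theorem p1 (hn : 4 ≤ n) {v : G} (hv : v ∈ tsc G 1) (hv1 : v ∉ gam G 1) : gam G 1 ⊔ zpowers v = tsc G 1 := by
  have c := mc_card_ne_top h (mc_tsc_ne h (j := 1) (by omega))
  rw [inf_eq_right.2 (MX.g1_le 1)] at c
  exact sup_zp_of_card (h.isPGroup.to_subgroup _) (MX.g1_le 1) c hv hv1

theorem c2 (hn : 4 ≤ n) {v d : G} (hv : v ∈ tsc G 1) (hv1 : v ∉ gam G 1) (hd : d ∈ tsc G 1) :
    ⁅v⁻¹, d⁆ ∈ gam G 2 := by
  rw [← p1 h hn hv hv1] at hd
  obtain ⟨a, ha, k, rfl⟩ := mem_sup_zp (le_normalizer_of_normal (mem_top v)) hd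
  have c : v ^ k * v = v * v ^ k := by group
  have := inv_mem (gam_cm ha v⁻¹)
  convert this using 1
  simp only [commutatorElement_def]
  group

theorem c3 (hn : 4 ≤ n) {v s : G} (hv : v ∈ tsc G 1) (hv1 : v ∉ gam G 1) (hs : Good n s) : ⁅v, s⁆ ∉ gam G 2 := fun e => by
  let K : Subgroup G :=
    { carrier := {x | ⁅x, s⁆ ∈ gam G 2}
      one_mem' := by simp
      mul_mem' := fun {a b} ha hb => by
        have := mul_mem (Normal.conj_mem inferInstance _ (show ⁅b, s⁆ ∈ gam G 2 from hb) a) (show ⁅a, s⁆ ∈ gam G 2 from ha)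
        show ⁅a * b, s⁆ ∈ gam G 2
        convert this using 1
        simp only [commutatorElement_def]; group
      inv_mem' := fun {a} ha => by
        have := Normal.conj_mem inferInstance _ (inv_mem (show ⁅a, s⁆ ∈ gam G 2 from ha)) a⁻¹
        show ⁅a⁻¹, s⁆ ∈ gam G 2
        convert this using 1
        simp only [commutatorElement_def]; group }
  have t : ⊤ ≤ K := by
    rw [← mc_tsc_max h le_rfl (hs 1 (by omega)), ← p1 h hn hv hv1]
    refine sup_le (sup_le (fun a ha => gam_cm ha s) (zpowers_le.2 e)) (zpowers_le.2 ?_)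
    show ⁅s, s⁆ ∈ gam G 2
    simp
  exact hs 0 (by omega) fun x _ => t (mem_top x)

end TW

open TW

set_option linter.unusedVariables false in
theorem topw [Finite G] [Fact p.Prime] (h : MaxClass p n G) (hp : 5 ≤ p) {τ : G → G} (hom : ∀ x y, τ (x * y) = τ x * τ y)
    (inj : ∀ x y, τ x = τ y → x = y) {v x y : G} (hv : v ∈ tsc G 1) (hv1 : v ∉ gam G 1) (tv : τ v = v⁻¹) {i : ℕ}
    (h1 : 1 ≤ i) (hi : i + 4 ≤ n) (hx : x ∈ gam G i) (hx1 : x ∉ gam G (i + 1)) (tx : x⁻¹ * τ x ∈ gam G (i + 1))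
    (hy : y ∈ gam G (i + 1)) (hy1 : y ∉ gam G (i + 2)) (ty : y⁻¹ * τ y ∈ gam G (i + 2)) : False := by
  obtain ⟨φ, rfl⟩ : ∃ φ : G →* G, τ = φ := ⟨MonoidHom.mk' τ hom, rfl⟩
  obtain ⟨s, hs⟩ := exists_good n h
  have hd : s⁻¹ * φ s ∈ tsc G 1 := by
    rw [← MX.bl h h1 hi]
    by_contra c
    refine mc_cm_not h h1 c hx hx1 ?_
    have a1 := all1 h φ (by omega) hy hy1 ty (gam_cm hx s)
    rw [map_commutatorElement] at a1
    have a2 := cm_lin (m := 1) hx (by rwa [pow_one]) (φ s) 1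
    simp only [mul_one, pow_one] at a2
    have a3 := Normal.conj_mem inferInstance _ (mul_mem a1 (inv_mem a2)) s⁻¹
    convert a3 using 1
    simp only [commutatorElement_def]; group
  have es : φ s = s * (s⁻¹ * φ s) := by group
  have W : ∀ j, 1 ≤ j → j ≤ i → ∃ z ∈ gam G j, z ∉ gam G (j + 1) ∧ z * φ z ∈ gam G (j + 1) := by
    intro j hj
    induction j, hj using Nat.le_induction with
    | base =>
      refine fun _ => ⟨⁅v, s⁆, gam_cm (i := 0) (mem_top v) s, c3 h (by omega) hv hv1 hs, ?_⟩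
      rw [map_commutatorElement, tv, es]
      exact st (j := 0) (mem_top v) (by simp) (c2 h (by omega) hv hv1 hd)
    | succ j hj ih =>
      intro hji
      obtain ⟨z, z1, z2, z3⟩ := ih (by omega)
      refine ⟨⁅z, s⁆, gam_cm z1 s, mc_cm_not h hj (hs j (by omega)) z1 z2, ?_⟩
      rw [map_commutatorElement, es]
      refine st z1 z3 ?_
      rw [← MX.bl h hj (by omega)] at hd
      exact hd _ (gi φ _ _ z1)
  obtain ⟨z, z1, z2, z3⟩ := W i h1 le_rfl
  have a1 := mul_mem z3 (inv_mem (all1 h φ h1 hx hx1 tx z1))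
  have a2 : z ^ p ∈ gam G (i + 1) := gam_anti (by omega) (mc_up h h1 z1)
  obtain ⟨k, hk⟩ := (Fact.out : p.Prime).odd_of_ne_two (by omega)
  have a3 : z ^ 2 ∈ gam G (i + 1) := by convert a1 using 1; rw [pow_two]; group
  rw [hk, pow_succ, pow_mul] at a2
  exact z2 ((mul_mem_cancel_left (pow_mem a3 k)).1 a2)

end Cfsg.Agent.MQ
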